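-- Team project OTSP (S5973), package [ODDOM4] (helper86): an isometry of odd order of the plus
-- form lies in Ω (4 ≤ d, all characteristics); from helper44's [ODDOMEGAE] and helper87's [PLUSQ].
import Mathlib
import Cfsg.Agent.Lib.Helper99.OTSP.Defs2
import Cfsg.Agent.Lib.Helper44.OElp.OddOmega
import Cfsg.Agent.Lib.Helper87.OTSP.PlusQ

set_option autoImplicit false

namespace Cfsg.Agent.Lib.Helper86.OTSP

open Cfsg.Agent.Lib.Helper99.OTSP

universe u

theorem pkgOddOm4 : PkgOddOm4.{u} := by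
  intro F _ _ d hd y hy k hk hyk
  have hnd := (Cfsg.Agent.Lib.Helper87.OTSP.pkgPlusQ F d).1
  have hodd : Odd (orderOf y) := Odd.of_dvd_nat hk (orderOf_dvd_of_pow_eq_one hyk)
  refine Cfsg.Agent.Lib.Helper44.OElp.pkgOddOmegaE F (Fin d ⊕ Fin d) _ hnd
    (fun _ => Or.inr ?_) y hy hodd
  rw [Fintype.card_sum, Fintype.card_fin]
  omega

end Cfsg.Agent.Lib.Helper86.OTSP
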