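-- Team project OTSP (S5973), package [PAIRS] final glue (helper86):
-- from [ANISO], [PRIM], [PAIRC], [TITS], [SUBI], [DIMI] to [PAIRS].
import Mathlib
import Cfsg.Agent.Lib.Helper99.OTSP.PairsDefs

set_option autoImplicit false
open scoped MatrixGroups
open Matrix

namespace Cfsg.Agent.Lib.Helper86.OTSP

open Cfsg.Agent.Lib.Helper99.OTSP Cfsg.Agent.Lib.Helper23.OHyp

universe u

section aux

variable {F : Type u} [Field F] {ι : Type} [Fintype ι] [DecidableEq ι]

theorem pairs_inv_iff (x : Matrix ι ι F) (W : Submodule F (ι → F)) :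
    Cfsg.Agent.Lib.Helper23.OHyp.Inv x W ↔ ∀ w ∈ W, x *ᵥ w ∈ W := by
  unfold Cfsg.Agent.Lib.Helper23.OHyp.Inv
  rw [Submodule.map_le_iff_le_comap]
  constructor
  · intro h w hw
    have h1 := h hw
    simpa [Matrix.toLin'_apply] using h1
  · intro h w hw
    simpa [Matrix.toLin'_apply] using h w hw

theorem pairs_inv_pow {x : Matrix ι ι F} {W : Submodule F (ι → F)}
    (h : Cfsg.Agent.Lib.Helper23.OHyp.Inv x W) (k : ℕ) :
    ∀ w ∈ W, (x ^ k) *ᵥ w ∈ W := by
  rw [pairs_inv_iff] at h
  induction k with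
  | zero =>
    intro w hw
    simpa using hw
  | succ k ih =>
    intro w hw
    rw [pow_succ, ← Matrix.mulVec_mulVec]
    exact ih _ (h w hw)

theorem pairs_polar_isom {Q : (ι → F) → F} {y : Matrix ι ι F} (h : ∀ v, Q (y *ᵥ v) = Q v)
    (u v : ι → F) :
    QuadraticMap.polar Q (y *ᵥ u) (y *ᵥ v) = QuadraticMap.polar Q u v := by
  unfold QuadraticMap.polar
  rw [← Matrix.mulVec_add, h, h, h]

end aux

theorem pairs_arith (i t n l c s : ℕ) (h1 : n = 2 * l + c) (h2 : c ≤ i * t) (h3 : i ∣ l)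
    (hs : s ≤ (n / i + 1 - t) / 2) : i * s ≤ l := by
  rcases Nat.eq_zero_or_pos i with hi0 | hipos
  · subst hi0
    simp only [Nat.div_zero] at hs
    have h4 : s = 0 := by omega
    simp [h4]
  · obtain ⟨s₀, rfl⟩ := h3
    have h4 : n / i ≤ 2 * s₀ + t := by
      apply Nat.div_le_of_le_mul
      rw [h1]
      nlinarith
    have h5 : s ≤ s₀ := by omega
    exact Nat.mul_le_mul_left i h5

/-- [PAIRS] from its cut. -/
theorem pkgPairs_of (hA : PkgAniso.{u}) (hP : PkgPrim.{u}) (hC : PkgPairC.{u})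
    (hTi : PkgTiTs.{u}) (hSu : PkgSubI.{u}) (hD : PkgDimI.{u}) : PkgPairs.{u} := by
  intro F _ _ ι _ _ Q r y hStd hev s hs
  obtain ⟨L, R', hLN, hLinv, hLts, hRN, hRinv, hRnd, hfin, hanis⟩ := hA F ι Q r y hStd
  have hbil := hStd.nondeg.polar_bilinear
  have hclaim : Module.finrank F R' ≤
      ordI (Fintype.card F) r * ((r - 1) / ordI (Fintype.card F) r) := by
    by_contra hlt
    rw [not_le] at hlt
    obtain ⟨M, hMR, hMinv, hMfin, hMcyc⟩ := hP F ι Q r y hStd R' hRN hRinv hlt
    by_cases hMnd : Nd Q M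
    · obtain ⟨T, hTM, hTinv, hTts, hTne⟩ :=
        hC F ι Q r y hStd hev M (hMR.trans hRN) hMinv hMnd hMfin hMcyc
      exact hTne (hanis T (hTM.trans hMR) hTinv hTts)
    · have hMinv' := (pairs_inv_iff y M).1 hMinv
      let rad : Submodule F (ι → F) :=
        { carrier := {u | u ∈ M ∧ ∀ v ∈ M, QuadraticMap.polar Q u v = 0}
          add_mem' := by
            rintro a b ⟨ha, ha'⟩ ⟨hb, hb'⟩
            refine ⟨M.add_mem ha hb, fun v hv => ?_⟩
            rw [hbil.add_left, ha' v hv, hb' v hv, add_zero]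
          zero_mem' := by
            refine ⟨M.zero_mem, fun v hv => ?_⟩
            have h0 := hbil.smul_left 0 0 v
            simpa using h0
          smul_mem' := by
            rintro c a ⟨ha, ha'⟩
            refine ⟨M.smul_mem c ha, fun v hv => ?_⟩
            rw [hbil.smul_left, ha' v hv, mul_zero] }
      have hradM : rad ≤ M := fun u hu => hu.1
      have hrad_inv : Cfsg.Agent.Lib.Helper23.OHyp.Inv y rad := by
        rw [pairs_inv_iff]
        rintro u ⟨hu, hu'⟩
        refine ⟨hMinv' u hu, fun v hv => ?_⟩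
        have h1 : y *ᵥ ((y ^ (r - 1)) *ᵥ v) = v := by
          rw [Matrix.mulVec_mulVec, ← pow_succ', Nat.sub_add_cancel hStd.prime.one_le, hStd.pow,
            Matrix.one_mulVec]
        rw [← h1, pairs_polar_isom hStd.isom]
        exact hu' _ (pairs_inv_pow hMinv (r - 1) v hv)
      have hrad_ts : TS Q rad :=
        hTi F ι Q r y hStd rad (hradM.trans (hMR.trans hRN)) hrad_inv
          (fun u hu v hv => hu.2 v hv.1)
      have hrad_bot : rad = ⊥ := hanis rad (hradM.trans hMR) hrad_inv hrad_ts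
      apply hMnd
      intro w hw hw0
      by_contra hcon
      have hwrad : w ∈ rad := by
        refine ⟨hw, fun v hv => ?_⟩
        by_contra hne
        apply hcon
        refine ⟨⟨v, hv, ?_⟩, ⟨v, hv, hne⟩⟩
        rw [QuadraticMap.polar_comm]
        exact hne
      rw [hrad_bot, Submodule.mem_bot] at hwrad
      exact hw0 hwrad
  have hdvd := hD F ι Q r y hStd L hLN hLinv
  have hkey : ordI (Fintype.card F) r * s ≤ Module.finrank F L :=
    pairs_arith _ _ _ _ _ s hfin hclaim hdvd hs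
  obtain ⟨L', hL'L, hL'inv, hL'fin⟩ := hSu F ι Q r y hStd L hLN hLinv s hkey
  exact ⟨L', hL'L.trans hLN, hL'inv, fun w hw => hLts w (hL'L hw), hL'fin⟩

end Cfsg.Agent.Lib.Helper86.OTSP
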