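-- Team project OTSP (S5973), package [PAIRC] (helper86): `i` even; an invariant nondegenerate
-- `M ≤ N` of dimension `2 i`, all of whose nonzero vectors lie in invariant subspaces of
-- dimension `i`, contains a nonzero invariant totally singular subspace (counting argument).
import Mathlib
import Cfsg.Agent.Lib.Helper99.OTSP.PairsDefs
import Cfsg.Agent.Lib.Helper86.OTSP.Pairs

set_option autoImplicit false
open scoped MatrixGroups
open Matrix

namespace Cfsg.Agent.Lib.Helper86.OTSP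

open Cfsg.Agent.Lib.Helper99.OTSP Cfsg.Agent.Lib.Helper23.OHyp

universe u

theorem pairc_ordI_pos (q r : ℕ) (hr : r.Prime) (h : ¬ r ∣ q) : 1 ≤ ordI q r := by
  haveI : Fact r.Prime := ⟨hr⟩
  have hne : ((q : ℕ) : ZMod r) ≠ 0 := by
    rw [Ne, ZMod.natCast_eq_zero_iff]
    exact h
  have h1 : IsOfFinOrder (Units.mk0 _ hne) := isOfFinOrder_of_finite _
  have h2 : IsOfFinOrder ((q : ℕ) : ZMod r) := by
    have h3 := (Units.coeHom (ZMod r)).isOfFinOrder h1
    simpa using h3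
  exact orderOf_pos_iff.2 h2

theorem pairc_arith (q e N c zu : ℕ) (hq : 2 ≤ q) (he : 1 ≤ e)
    (hc : c + 1 = q ^ (e + e))
    (hN : N * c + 1 = q ^ (2 * (e + e)))
    (hzu : zu + 1 + q ^ e = q ^ (2 * e - 1) + q ^ (e - 1))
    (hzM : N * zu + 1 + q ^ (e + e - 1) = q ^ (2 * (e + e) - 1) + q ^ (e + e)) : False := by
  obtain ⟨k, rfl⟩ : ∃ k, e = k + 1 := ⟨e - 1, by omega⟩
  have e1 : q ^ (k + 1 + (k + 1)) = q ^ 2 * (q ^ k) ^ 2 := by ring
  have e2 : q ^ (2 * (k + 1 + (k + 1))) = q ^ 4 * (q ^ k) ^ 4 := by ring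
  have e3 : q ^ (k + 1) = q * q ^ k := by ring
  have e4 : q ^ (2 * (k + 1) - 1) = q * (q ^ k) ^ 2 := by
    have h : 2 * (k + 1) - 1 = 2 * k + 1 := by omega
    rw [h]
    ring
  have e5 : q ^ (k + 1 - 1) = q ^ k := by simp
  have e6 : q ^ (k + 1 + (k + 1) - 1) = q * (q ^ k) ^ 2 := by
    have h : k + 1 + (k + 1) - 1 = 2 * k + 1 := by omega
    rw [h]
    ring
  have e7 : q ^ (2 * (k + 1 + (k + 1)) - 1) = q ^ 3 * (q ^ k) ^ 4 := by
    have h : 2 * (k + 1 + (k + 1)) - 1 = 4 * k + 3 := by omega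
    rw [h]
    ring
  rw [e6, e7, e1] at hzM
  rw [e1] at hc
  rw [e2] at hN
  rw [e4, e5, e3] at hzu
  have ha : 1 ≤ q ^ k := Nat.one_le_pow _ _ (by omega)
  generalize q ^ k = a at *
  have hcpos : 0 < c := by
    have h1 : 4 ≤ q ^ 2 := by nlinarith
    have h2 : 1 ≤ a ^ 2 := Nat.one_le_pow _ _ ha
    have h3 : 4 ≤ q ^ 2 * a ^ 2 := by nlinarith
    omega
  have hNc : N = c + 2 := by
    have h1 : (c + 1) ^ 2 = q ^ 4 * a ^ 4 := by
      rw [hc]
      ring
    have h2 : N * c + 1 = (c + 2) * c + 1 := by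
      rw [hN, ← h1]
      ring
    exact Nat.eq_of_mul_eq_mul_right hcpos (Nat.succ_injective h2)
  subst hNc
  zify at hc hzu hzM
  have hE : ((q : ℤ) - 1) * (q ^ 2 * a ^ 3 + 2 * q * a ^ 2 + a) = 0 := by
    linear_combination -hzM + (zu : ℤ) * hc + ((q : ℤ) ^ 2 * a ^ 2 + 1) * hzu
  have hq' : (2 : ℤ) ≤ q := by exact_mod_cast hq
  have ha' : (1 : ℤ) ≤ a := by exact_mod_cast ha
  have hpos : (0 : ℤ) < ((q : ℤ) - 1) * (q ^ 2 * a ^ 3 + 2 * q * a ^ 2 + a) := by
    apply mul_pos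
    · linarith
    · have h1 : (0 : ℤ) < a := by linarith
      have h2 : (0 : ℤ) < q := by linarith
      positivity
  linarith

section geo

variable {F : Type u} [Field F] {ι : Type} [Fintype ι] [DecidableEq ι]

/-- the radical of the polar form on `W` -/
def pairc_rad (Q : (ι → F) → F) (hbil : Cfsg.Geo.IsBilinearForm (QuadraticMap.polar Q))
    (W : Submodule F (ι → F)) : Submodule F (ι → F) where
  carrier := {u | u ∈ W ∧ ∀ v ∈ W, QuadraticMap.polar Q u v = 0}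
  add_mem' := by
    rintro a b ⟨ha, ha'⟩ ⟨hb, hb'⟩
    refine ⟨W.add_mem ha hb, fun v hv => ?_⟩
    rw [hbil.add_left, ha' v hv, hb' v hv, add_zero]
  zero_mem' := by
    refine ⟨W.zero_mem, fun v hv => ?_⟩
    have h0 := hbil.smul_left 0 0 v
    simpa using h0
  smul_mem' := by
    rintro c a ⟨ha, ha'⟩
    refine ⟨W.smul_mem c ha, fun v hv => ?_⟩
    rw [hbil.smul_left, ha' v hv, mul_zero]

theorem pairc_mem_rad {Q : (ι → F) → F} (hbil : Cfsg.Geo.IsBilinearForm (QuadraticMap.polar Q))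
    {W : Submodule F (ι → F)} {u : ι → F} :
    u ∈ pairc_rad Q hbil W ↔ u ∈ W ∧ ∀ v ∈ W, QuadraticMap.polar Q u v = 0 := Iff.rfl

theorem pairc_rad_inv {Q : (ι → F) → F} (hbil : Cfsg.Geo.IsBilinearForm (QuadraticMap.polar Q))
    {y : Matrix ι ι F} {r : ℕ} (hisom : ∀ v, Q (y *ᵥ v) = Q v) (hpow : y ^ r = 1) (hr : 1 ≤ r)
    {W : Submodule F (ι → F)} (hW : Cfsg.Agent.Lib.Helper23.OHyp.Inv y W) :
    Cfsg.Agent.Lib.Helper23.OHyp.Inv y (pairc_rad Q hbil W) := by
  rw [pairs_inv_iff]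
  rintro u ⟨hu, hu'⟩
  refine ⟨(pairs_inv_iff y W).1 hW u hu, fun v hv => ?_⟩
  have h1 : y *ᵥ ((y ^ (r - 1)) *ᵥ v) = v := by
    rw [Matrix.mulVec_mulVec, ← pow_succ', Nat.sub_add_cancel hr, hpow, Matrix.one_mulVec]
  rw [← h1, pairs_polar_isom hisom]
  exact hu' _ (pairs_inv_pow hW (r - 1) v hv)

theorem pairc_nd_of_rad_bot {Q : (ι → F) → F}
    (hbil : Cfsg.Geo.IsBilinearForm (QuadraticMap.polar Q)) {W : Submodule F (ι → F)}
    (h : pairc_rad Q hbil W = ⊥) : Nd Q W := by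
  intro w hw hw0
  by_contra hcon
  have hwrad : w ∈ pairc_rad Q hbil W := by
    refine ⟨hw, fun v hv => ?_⟩
    by_contra hne
    apply hcon
    refine ⟨⟨v, hv, ?_⟩, ⟨v, hv, hne⟩⟩
    rw [QuadraticMap.polar_comm]
    exact hne
  rw [h, Submodule.mem_bot] at hwrad
  exact hw0 hwrad

theorem pairc_count (A : Finset (ι → F)) (𝓛 : Finset (Submodule F (ι → F)))
    (B : Submodule F (ι → F) → Finset (ι → F))
    (hB : ∀ U ∈ 𝓛, B U ⊆ A) (hcover : ∀ v ∈ A, ∃ U ∈ 𝓛, v ∈ B U)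
    (hdisj : ∀ U ∈ 𝓛, ∀ U' ∈ 𝓛, ∀ v, v ∈ B U → v ∈ B U' → U = U') :
    A.card = ∑ U ∈ 𝓛, (B U).card := by
  classical
  have h1 : A = 𝓛.biUnion B := by
    ext v
    rw [Finset.mem_biUnion]
    constructor
    · intro hv
      exact hcover v hv
    · rintro ⟨U, hU, hv⟩
      exact hB U hU hv
  rw [h1, Finset.card_biUnion]
  intro U hU U' hU' hne
  rw [Function.onFun, Finset.disjoint_left]
  intro v hv hv'
  exact hne (hdisj U hU U' hU' v hv hv')

theorem pairc_card_nz [Fintype F] (S : Finset (ι → F)) (W : Submodule F (ι → F))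
    (hS : ∀ v, v ∈ S ↔ v ∈ W ∧ v ≠ 0) :
    S.card + 1 = Fintype.card F ^ Module.finrank F W := by
  classical
  have h1 : (W : Set (ι → F)) = insert 0 (S : Set (ι → F)) := by
    ext v
    simp only [SetLike.mem_coe, Set.mem_insert_iff, Finset.mem_coe, hS]
    constructor
    · intro hv
      by_cases hv0 : v = 0
      · exact Or.inl hv0
      · exact Or.inr ⟨hv, hv0⟩
    · rintro (rfl | ⟨hv, -⟩)
      · exact W.zero_mem
      · exact hv
  have h2 : Nat.card W = Fintype.card F ^ Module.finrank F W := by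
    rw [Module.natCard_eq_pow_finrank (K := F), Nat.card_eq_fintype_card]
  have h3 : Nat.card W = (insert 0 (S : Set (ι → F))).ncard := by
    rw [← h1]
    rfl
  rw [← h2, h3, Set.ncard_insert_of_notMem (by simp [hS]) (Finset.finite_toSet S),
    Set.ncard_coe_finset]

theorem pairc_card_z (S : Finset (ι → F)) (W : Submodule F (ι → F)) (Q : (ι → F) → F)
    (hQ0 : Q 0 = 0) (hS : ∀ v, v ∈ S ↔ v ∈ W ∧ v ≠ 0 ∧ Q v = 0) :
    S.card + 1 = Nat.card {w : ι → F // w ∈ W ∧ Q w = 0} := by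
  classical
  have h1 : {w : ι → F | w ∈ W ∧ Q w = 0} = insert 0 (S : Set (ι → F)) := by
    ext v
    simp only [Set.mem_setOf_eq, Set.mem_insert_iff, Finset.mem_coe, hS]
    constructor
    · rintro ⟨hv, hq⟩
      by_cases hv0 : v = 0
      · exact Or.inl hv0
      · exact Or.inr ⟨hv, hv0, hq⟩
    · rintro (rfl | ⟨hv, -, hq⟩)
      · exact ⟨W.zero_mem, hQ0⟩
      · exact ⟨hv, hq⟩
  have h3 : Nat.card {w : ι → F // w ∈ W ∧ Q w = 0} = (insert 0 (S : Set (ι → F))).ncard := by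
    rw [← h1]
    rfl
  rw [h3, Set.ncard_insert_of_notMem (by simp [hS]) (Finset.finite_toSet S),
    Set.ncard_coe_finset]

end geo

/-- [PAIRC] -/
theorem pkgPairC_of (hT : PkgTypeW.{u}) (hZ : PkgZCnt.{u}) (hTi : PkgTiTs.{u})
    (hD : PkgDimI.{u}) : PkgPairC.{u} := by
  intro F _ _ ι _ _ Q r y hStd hev M hMN hMinv hMnd hMfin hMcyc
  classical
  by_contra hno
  have hno' : ∀ T : Submodule F (ι → F), T ≤ M → Cfsg.Agent.Lib.Helper23.OHyp.Inv y T →
      TS Q T → T = ⊥ := by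
    intro T h1 h2 h3
    by_contra h4
    exact hno ⟨T, h1, h2, h3, h4⟩
  have hipos : 1 ≤ ordI (Fintype.card F) r := pairc_ordI_pos _ _ hStd.prime hStd.ndvd
  have hq2 : 2 ≤ Fintype.card F := Fintype.one_lt_card
  have hbil := hStd.nondeg.polar_bilinear
  have hQ0 : Q 0 = 0 := by
    have h0 := hStd.nondeg.smul 0 0
    simpa using h0
  haveI : Finite (Submodule F (ι → F)) :=
    Finite.of_injective (fun W : Submodule F (ι → F) => (W : Set (ι → F)))
      SetLike.coe_injective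
  haveI : Fintype (Submodule F (ι → F)) := Fintype.ofFinite _
  let 𝓛 : Finset (Submodule F (ι → F)) := Finset.univ.filter
    (fun U => U ≤ M ∧ Cfsg.Agent.Lib.Helper23.OHyp.Inv y U ∧
      Module.finrank F U = ordI (Fintype.card F) r)
  have h𝓛 : ∀ U, U ∈ 𝓛 ↔ U ≤ M ∧ Cfsg.Agent.Lib.Helper23.OHyp.Inv y U ∧
      Module.finrank F U = ordI (Fintype.card F) r := by
    intro U
    simp [𝓛]
  have hUnd : ∀ U ∈ 𝓛, Nd Q U := by
    intro U hU
    obtain ⟨hUM, hUinv, hUfin⟩ := (h𝓛 U).1 hU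
    have hradinv := pairc_rad_inv hbil hStd.isom hStd.pow hStd.prime.one_le hUinv
    have hradle : pairc_rad Q hbil U ≤ U := fun u hu => hu.1
    have hdvd := hD F ι Q r y hStd _ (hradle.trans (hUM.trans hMN)) hradinv
    have hle : Module.finrank F (pairc_rad Q hbil U) ≤ ordI (Fintype.card F) r :=
      hUfin ▸ Submodule.finrank_mono hradle
    rcases Nat.eq_zero_or_pos (Module.finrank F (pairc_rad Q hbil U)) with h0 | hpos
    · exact pairc_nd_of_rad_bot hbil (Submodule.finrank_eq_zero.1 h0)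
    · exfalso
      have heq : Module.finrank F (pairc_rad Q hbil U) = ordI (Fintype.card F) r :=
        le_antisymm hle (Nat.le_of_dvd hpos hdvd)
      have hradU : pairc_rad Q hbil U = U :=
        Submodule.eq_of_le_of_finrank_eq hradle (heq.trans hUfin.symm)
      have hts : TS Q U := hTi F ι Q r y hStd U (hUM.trans hMN) hUinv (fun u hu v hv => by
        have h1 : u ∈ pairc_rad Q hbil U := by
          rw [hradU]
          exact hu
        exact h1.2 v hv)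
      have h2 := hno' U hUM hUinv hts
      rw [h2, finrank_bot] at hUfin
      omega
  have hUnp : ∀ U ∈ 𝓛, ¬ Plus Q U := by
    intro U hU
    obtain ⟨hUM, hUinv, hUfin⟩ := (h𝓛 U).1 hU
    rw [hT F ι Q r y hStd hev U (hUM.trans hMN) hUinv (hUnd U hU), hUfin, Nat.div_self hipos]
    decide
  have hMp : Plus Q M := by
    rw [hT F ι Q r y hStd hev M hMN hMinv hMnd, hMfin, Nat.mul_div_cancel _ hipos]
    decide
  obtain ⟨e, he⟩ := hev
  have he1 : 1 ≤ e := by omega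
  have huniq : ∀ U ∈ 𝓛, ∀ U' ∈ 𝓛, ∀ v : ι → F, v ≠ 0 → v ∈ U → v ∈ U' → U = U' := by
    intro U hU U' hU' v hv0 hvU hvU'
    obtain ⟨hUM, hUinv, hUfin⟩ := (h𝓛 U).1 hU
    obtain ⟨hUM', hUinv', hUfin'⟩ := (h𝓛 U').1 hU'
    have hinfinv : Cfsg.Agent.Lib.Helper23.OHyp.Inv y (U ⊓ U') := by
      rw [pairs_inv_iff]
      intro w hw
      exact ⟨(pairs_inv_iff y U).1 hUinv w hw.1, (pairs_inv_iff y U').1 hUinv' w hw.2⟩
    have hdvd := hD F ι Q r y hStd (U ⊓ U') ((inf_le_left.trans hUM).trans hMN) hinfinv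
    have hle : Module.finrank F ↥(U ⊓ U') ≤ ordI (Fintype.card F) r :=
      hUfin ▸ Submodule.finrank_mono inf_le_left
    have hpos : 0 < Module.finrank F ↥(U ⊓ U') := by
      rw [Nat.pos_iff_ne_zero, Ne, Submodule.finrank_eq_zero]
      intro hbot
      have h1 : v ∈ U ⊓ U' := ⟨hvU, hvU'⟩
      rw [hbot, Submodule.mem_bot] at h1
      exact hv0 h1
    have heq : Module.finrank F ↥(U ⊓ U') = ordI (Fintype.card F) r :=
      le_antisymm hle (Nat.le_of_dvd hpos hdvd)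
    have h1 : U ⊓ U' = U := Submodule.eq_of_le_of_finrank_eq inf_le_left (heq.trans hUfin.symm)
    have h2 : U ⊓ U' = U' :=
      Submodule.eq_of_le_of_finrank_eq inf_le_right (heq.trans hUfin'.symm)
    exact h1.symm.trans h2
  let Fl : Submodule F (ι → F) → ((ι → F) → Prop) → Finset (ι → F) :=
    fun W P => Finset.univ.filter (fun v => v ∈ W ∧ v ≠ 0 ∧ P v)
  have hFl : ∀ (W : Submodule F (ι → F)) (P : (ι → F) → Prop) (v : ι → F),
      v ∈ Fl W P ↔ v ∈ W ∧ v ≠ 0 ∧ P v := by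
    intro W P v
    simp [Fl]
  have hcount : ∀ P : (ι → F) → Prop, (Fl M P).card = ∑ U ∈ 𝓛, (Fl U P).card := by
    intro P
    apply pairc_count
    · intro U hU v hv
      rw [hFl] at hv ⊢
      exact ⟨((h𝓛 U).1 hU).1 hv.1, hv.2⟩
    · intro v hv
      rw [hFl] at hv
      obtain ⟨U, hUM, hUinv, hvU, hUfin⟩ := hMcyc v hv.1 hv.2.1
      exact ⟨U, (h𝓛 U).2 ⟨hUM, hUinv, hUfin⟩, (hFl U P v).2 ⟨hvU, hv.2⟩⟩
    · intro U hU U' hU' v hv hv'
      rw [hFl] at hv hv'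
      exact huniq U hU U' hU' v hv.2.1 hv.1 hv'.1
  have hcnz : ∀ W : Submodule F (ι → F),
      (Fl W (fun _ => True)).card + 1 = Fintype.card F ^ Module.finrank F W := by
    intro W
    apply pairc_card_nz
    intro v
    rw [hFl]
    simp
  have hcz : ∀ W : Submodule F (ι → F),
      (Fl W (fun v => Q v = 0)).card + 1 = Nat.card {w : ι → F // w ∈ W ∧ Q w = 0} := by
    intro W
    apply pairc_card_z _ W Q hQ0
    intro v
    rw [hFl]
  have hMne : M ≠ ⊥ := by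
    intro h
    rw [h, finrank_bot] at hMfin
    omega
  obtain ⟨v₀, hv₀M, hv₀⟩ := Submodule.exists_mem_ne_zero_of_ne_bot hMne
  obtain ⟨U₀, hU₀M, hU₀inv, -, hU₀fin⟩ := hMcyc v₀ hv₀M hv₀
  have hU₀ : U₀ ∈ 𝓛 := (h𝓛 U₀).2 ⟨hU₀M, hU₀inv, hU₀fin⟩
  have hzU : ∀ U ∈ 𝓛, (Fl U (fun v => Q v = 0)).card + 1 + Fintype.card F ^ e =
      Fintype.card F ^ (2 * e - 1) + Fintype.card F ^ (e - 1) := by
    intro U hU
    obtain ⟨hUM, hUinv, hUfin⟩ := (h𝓛 U).1 hU
    have h1 := (hZ F ι Q hStd.nondeg U e (hUnd U hU) (by rw [hUfin, he]; ring) he1).2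
      (hUnp U hU)
    rw [← hcz U] at h1
    exact h1
  have hzM : (Fl M (fun v => Q v = 0)).card + 1 + Fintype.card F ^ (e + e - 1) =
      Fintype.card F ^ (2 * (e + e) - 1) + Fintype.card F ^ (e + e) := by
    have h1 := (hZ F ι Q hStd.nondeg M (e + e) hMnd (by rw [hMfin, he]) (by omega)).1 hMp
    rw [← hcz M] at h1
    exact h1
  have hcU : ∀ U ∈ 𝓛, (Fl U (fun _ => True)).card + 1 = Fintype.card F ^ (e + e) := by
    intro U hU
    rw [hcnz U, ((h𝓛 U).1 hU).2.2, he]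
  have hcM : (Fl M (fun _ => True)).card + 1 = Fintype.card F ^ (2 * (e + e)) := by
    rw [hcnz M, hMfin, he]
  have hsum1 : (Fl M (fun _ => True)).card = 𝓛.card * (Fl U₀ (fun _ => True)).card := by
    rw [hcount, Finset.sum_congr rfl (fun U hU => show (Fl U (fun _ => True)).card =
      (Fl U₀ (fun _ => True)).card by have h1 := hcU U hU; have h2 := hcU U₀ hU₀; omega),
      Finset.sum_const, smul_eq_mul]
  have hsum2 : (Fl M (fun v => Q v = 0)).card = 𝓛.card * (Fl U₀ (fun v => Q v = 0)).card := by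
    rw [hcount, Finset.sum_congr rfl (fun U hU => show (Fl U (fun v => Q v = 0)).card =
      (Fl U₀ (fun v => Q v = 0)).card by have h1 := hzU U hU; have h2 := hzU U₀ hU₀; omega),
      Finset.sum_const, smul_eq_mul]
  exact pairc_arith (Fintype.card F) e 𝓛.card (Fl U₀ (fun _ => True)).card
    (Fl U₀ (fun v => Q v = 0)).card hq2 he1 (hcU U₀ hU₀) (by rw [← hsum1]; exact hcM)
    (hzU U₀ hU₀) (by rw [← hsum2]; exact hzM)

end Cfsg.Agent.Lib.Helper86.OTSP
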